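import Mathlib
import Cfsg.Agent.Lib.ThreeTrans.ZInst
import Cfsg.Agent.Lib.Fgs.ClassSize
import Cfsg.Agent.Lib.QDFus.Gen
import Cfsg.Agent.Lib.ThreeTrans.Layer
import Cfsg.Agent.Lib.Core.Cores

/-!
# The group theory of package BY of plans/KINV.md
-/

set_option autoImplicit false

namespace CfsgLib.KInv

open Cfsg Subgroup

theorem conj_of_cube {E : Type*} [Group E] {a b : E} (ha : a * a = 1) (hb : b * b = 1) (h : (a * b) ^ 3 = 1) :
    a * b * a * (a * b)⁻¹ = b := by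
  have h1 : a * b * a * (a * b)⁻¹ = a * b * a * b * a := by
    rw [mul_inv_rev, inv_eq_of_mul_eq_one_left ha, inv_eq_of_mul_eq_one_left hb]; group
  rw [h1, ← mul_left_inj b, hb, ← h]
  simp only [pow_succ, pow_zero, one_mul, mul_assoc]

/-- an involution whose products with its conjugates have order one or three has three-power class length -/
theorem index_eq_three_pow {E : Type*} [Group E] [Finite E] {d : E} (hd : d * d = 1)
    (h : ∀ g : E, (d * (g * d * g⁻¹)) ^ 3 = 1) : ∃ m, (centralizer ({d} : Set E)).index = 3 ^ m := by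
  have := Fact.mk Nat.prime_three
  have := Fact.mk Nat.prime_two
  by_cases h1 : d = 1
  · refine ⟨0, index_eq_one.2 (eq_top_iff.2 fun g _ => mem_centralizer_singleton_iff.2 ?_)⟩
    rw [h1, mul_one, one_mul]
  have h2 := ThreeTrans.mul_mem_pCore_of_zstar ThreeTrans.zstar Nat.prime_three (by norm_num) d
    (orderOf_eq_prime (by rwa [pow_two]) h1) fun g => ⟨1, by rw [pow_one, h]⟩
  have hO := Cfsg.pCore_normal 3 E
  set O := pCore 3 E
  set C := centralizer ({d} : Set E)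
  have h3 : C ⊔ O = ⊤ := eq_top_iff.2 fun g _ => by
    have h4 : d * (g * d * g⁻¹) ∈ O := h2 d (IsConj.refl d) _ (isConj_iff.2 ⟨g, rfl⟩)
    have h5 := conj_of_cube hd (by rw [conj_mul, hd]; group) (h g)
    generalize d * (g * d * g⁻¹) = w at h4 h5
    have h6 : w⁻¹ * g ∈ C := mem_centralizer_singleton_iff.2 (by
      calc w⁻¹ * g * d = w⁻¹ * (g * d * g⁻¹) * g := by group
        _ = _ := by rw [← h5]; group)
    rw [show g = w * (w⁻¹ * g) by group]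
    exact mul_mem (mem_sup_right h4) (mem_sup_left h6)
  have h4 : O.relIndex C = O.index := by rw [← relIndex_sup_right, h3, relIndex_top_right]
  have h5 := (O.subgroupOf C).card_mul_index
  have h6 := O.card_mul_index
  rw [← C.card_mul_index, ← h5, ← relIndex, h4, mul_right_comm] at h6
  have h7 : C.index ∣ Nat.card O := Dvd.intro_left _ (Nat.eq_of_mul_eq_mul_right O.index_ne_zero_of_finite.bot_lt h6).symm
  obtain ⟨n, hn⟩ := (IsPGroup.iff_card (p := 3)).1 (Core.isPGroup_pCore 3 E)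
  obtain ⟨m, -, hm⟩ := (Nat.dvd_prime_pow Nat.prime_three).1 (hn ▸ h7)
  exact ⟨m, hm⟩

/-- the involutions other than `t` -/
def Sg {T : Type*} [Group T] (t : T) : Set T := {s | s * s = 1 ∧ s ≠ 1 ∧ s ≠ t}

structure BY {T : Type*} [Group T] (t : T) : Prop where
  tt : t * t = 1
  ne : t ≠ 1
  cen : ∀ g, g * t = t * g
  a1 : ∀ s ∈ Sg t, ∀ y, Commute y s → ∀ r : ℕ, r.Prime → r ≠ 3 → r ≠ 17 → y ^ r = 1 →
    y = 1 ∨ y = t ∨ y = s ∨ y = s * t
  a2 : ∀ a ∈ Sg t, ∀ b ∈ Sg t, ∃ n, 0 < n ∧ n ≤ 4 ∧ ((a * b) ^ n = 1 ∨ (a * b) ^ n = t)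
  a3 : ∀ a ∈ Sg t, ∀ b ∈ Sg t, orderOf (a * b) ≤ 6

namespace BY

variable {T : Type*} [Group T] {t : T} (h : BY t)
include h

theorem conj {s : T} (hs : s ∈ Sg t) (g : T) : g * s * g⁻¹ ∈ Sg t := by
  refine ⟨by rw [conj_mul, hs.1]; group, fun e => hs.2.1 (conj_eq_one_iff.1 e), fun e => hs.2.2 ?_⟩
  rw [mul_inv_eq_iff_eq_mul, ← h.cen] at e
  exact mul_left_cancel e

theorem mul_t {s : T} (hs : s ∈ Sg t) : s * t ∈ Sg t := by
  refine ⟨?_, fun e => hs.2.2 ?_, fun e => hs.2.1 (mul_eq_right.1 e)⟩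
  · rw [mul_assoc, ← mul_assoc t, ← h.cen, mul_assoc, h.tt, mul_one, hs.1]
  · rw [eq_inv_of_mul_eq_one_left e, inv_eq_of_mul_eq_one_left h.tt]

theorem mem_t {u : T} : u ∈ zpowers t ↔ u = 1 ∨ u = t :=
  ⟨ThreeTrans.eq_one_or_eq_of_mem_zpowers h.tt, by rintro (rfl | rfl); exacts [one_mem _, mem_zpowers _]⟩

theorem normal : (zpowers t).Normal := ⟨fun u hu g => by
  rcases h.mem_t.1 hu with rfl | rfl
  · simp
  · rw [h.cen, mul_inv_cancel_right]; exact hu⟩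

theorem of_sq {a b : T} (ha : a ∈ Sg t) (hb : b ∈ Sg t) (h2 : (a * b) ^ 2 = 1) : a * b ∈ zpowers t := by
  have h1 : Commute b a := by
    rw [pow_two] at h2
    rw [Commute, SemiconjBy, eq_inv_of_mul_eq_one_left h2, mul_inv_rev, inv_eq_of_mul_eq_one_left ha.1,
      inv_eq_of_mul_eq_one_left hb.1]
  rcases h.a1 a ha b h1 2 Nat.prime_two (by norm_num) (by norm_num) (by rw [pow_two, hb.1]) with e | e | e | e
  · exact absurd e hb.2.1
  · exact absurd e hb.2.2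
  · rw [e, ha.1]; exact one_mem _
  · rw [e, ← mul_assoc, ha.1, one_mul]; exact mem_zpowers _

theorem cube (hn : ∀ a ∈ Sg t, ∀ b ∈ Sg t, (a * b) ^ 2 ≠ t) {a b : T} (ha : a ∈ Sg t) (hb : b ∈ Sg t) :
    (a * b) ^ 3 ∈ zpowers t := by
  have k : ∀ a ∈ Sg t, ∀ b ∈ Sg t, (a * b) ^ 2 ∈ zpowers t → a * b ∈ zpowers t := fun a ha b hb e =>
    h.of_sq ha hb ((h.mem_t.1 e).resolve_right (hn a ha b hb))
  obtain ⟨n, h0, h4, h5⟩ := h.a2 a ha b hb
  rw [← h.mem_t] at h5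
  interval_cases n
  · exact pow_mem (pow_one (a * b) ▸ h5) 3
  · exact pow_mem (k a ha b hb h5) 3
  · exact h5
  · have e : a * (b * a * b⁻¹) = (a * b) ^ 2 := by rw [inv_eq_of_mul_eq_one_left hb.1, pow_two]; group
    refine pow_mem (k a ha b hb (e ▸ k a ha _ (h.conj ha b) ?_)) 3
    rwa [e, ← pow_mul]

theorem exists_sq [Finite T] (h4 : (Sg t).ncard ≡ 4 [MOD 17]) (h3 : ¬ 3 ^ 14 ∣ Nat.card T) :
    ∃ a ∈ Sg t, ∃ b ∈ Sg t, (a * b) ^ 2 = t := by
  by_contra! hn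
  have := h.normal
  have := Fact.mk Nat.prime_two
  obtain ⟨s, hs⟩ : (Sg t).Nonempty := Set.nonempty_of_ncard_ne_zero fun e => by
    rw [e] at h4
    exact absurd h4 (by decide)
  have k : ∀ u ∈ Sg t, ((s : T ⧸ zpowers t) * u) ^ 3 = 1 := fun u hu => by
    rw [← QuotientGroup.mk_mul, ← QuotientGroup.mk_pow, QuotientGroup.eq_one_iff]
    exact h.cube hn hs hu
  have k2 : ∀ u ∈ Sg t, ((u : T ⧸ zpowers t) * u) = 1 := fun u hu => by
    rw [← QuotientGroup.mk_mul, hu.1, QuotientGroup.mk_one]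
  obtain ⟨m, hm⟩ := index_eq_three_pow (k2 s hs) fun g => by
    obtain ⟨g, rfl⟩ := QuotientGroup.mk_surjective g
    exact k _ (h.conj hs g)
  have h5 : Sg t = QuotientGroup.mk ⁻¹' {y : T ⧸ zpowers t | IsConj (s : T ⧸ zpowers t) y} := by
    refine Set.ext fun u => ⟨fun hu => isConj_iff.2 ⟨_, conj_of_cube (k2 s hs) (k2 u hu) (k u hu)⟩, fun hu => ?_⟩
    obtain ⟨g, hg⟩ := isConj_iff.1 hu
    obtain ⟨g, rfl⟩ := QuotientGroup.mk_surjective g
    rw [← QuotientGroup.mk_mul, ← QuotientGroup.mk_inv, ← QuotientGroup.mk_mul, QuotientGroup.eq, h.mem_t,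
      inv_mul_eq_one, inv_mul_eq_iff_eq_mul] at hg
    rcases hg with rfl | rfl
    exacts [h.conj hs g, h.mul_t (h.conj hs g)]
  rw [h5, ← Nat.card_coe_set_eq, QuotientGroup.card_preimage_mk, Nat.card_coe_set_eq, Fgs.ncard_isConj_eq_index, hm,
    Nat.card_zpowers, orderOf_eq_prime (by rw [pow_two, h.tt]) h.ne] at h4
  have h6 : 3 ^ m ∣ Nat.card T := (hm ▸ index_dvd_card _).trans (card_quotient_dvd_card _)
  have h7 : m < 14 := by
    by_contra! h7
    exact h3 ((pow_dvd_pow 3 h7).trans h6)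
  interval_cases m <;> exact absurd h4 (by decide)

section Four

variable {s c : T} (hs : s ∈ Sg t) (hc : c ^ 2 = t) (hi : s * c * s⁻¹ = c⁻¹)
include hc

theorem ord_c : orderOf c = 4 := by
  have := Fact.mk Nat.prime_two
  refine orderOf_eq_prime_pow (p := 2) (n := 1) (by rw [pow_one, hc]; exact h.ne) ?_
  rw [show 2 ^ (1 + 1) = 2 * 2 from rfl, pow_mul, hc, pow_two, h.tt]

theorem conj_c {g : T} (hg : g ∈ normalizer (zpowers c : Set T)) : g * c * g⁻¹ = c ∨ g * c * g⁻¹ = c⁻¹ := by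
  refine QDFus.eq_or_eq_inv_of_four (h.ord_c hc) ((mem_normalizer_iff.1 hg c).1 (mem_zpowers c)) fun e => h.ne ?_
  rwa [conj_mul, conj_eq_one_iff, ← pow_two, hc] at e

theorem sq_comm {g : T} (hg : g ∈ normalizer (zpowers c : Set T)) : Commute (g ^ 2) c := by
  rw [Commute, SemiconjBy, ← mul_inv_eq_iff_eq_mul, show g ^ 2 * c * (g ^ 2)⁻¹ = g * (g * c * g⁻¹) * g⁻¹ by
    rw [pow_two]; group]
  rcases h.conj_c hc hg with e | e
  · rw [e, e]
  · rw [e, conj_inv.symm, e, inv_inv]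

include hs hi

theorem mem_c0 {u : T} (h1 : Commute u c) (h2 : s * u * s⁻¹ = u⁻¹) (h3 : u ^ 2 = 1) : u ∈ zpowers c := by
  have h4 : ¬ Commute s c := fun e => h.ne (by
    rw [e.eq, mul_inv_cancel_right] at hi
    rw [← hc, pow_two]
    exact mul_eq_one_iff_eq_inv.2 hi)
  rw [show u⁻¹ = u from inv_eq_of_mul_eq_one_left (pow_two u ▸ h3), mul_inv_eq_iff_eq_mul] at h2
  rcases h.a1 s hs u h2.symm 2 Nat.prime_two (by norm_num) (by norm_num) h3 with e | e | e | e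
  · rw [e]; exact one_mem _
  · rw [e, ← hc]; exact pow_mem (mem_zpowers c) 2
  · exact absurd (e ▸ h1) h4
  · refine absurd ?_ h4
    have := h1.mul_left (show Commute t c from (h.cen c).symm)
    rwa [e, mul_assoc, h.tt, mul_one] at this

theorem mem_c {u : T} (h1 : Commute u c) (h2 : s * u * s⁻¹ = u⁻¹) (h3 : u ^ 2 = 1 ∨ u ^ 2 = t) : u ∈ zpowers c := by
  refine h3.elim (h.mem_c0 hs hc hi h1 h2) fun h3 => ?_
  refine (mul_mem_cancel_right (mem_zpowers c)).1 (h.mem_c0 hs hc hi (h1.mul_left (Commute.refl c)) ?_ ?_)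
  · rw [← conj_mul, h2, hi, ← mul_inv_rev, h1.eq]
  · rw [h1.mul_pow, h3, hc, h.tt]

theorem cube_c {g : T} (hg : g ∈ normalizer (zpowers c : Set T)) : (s * (g * s * g⁻¹)) ^ 3 ∈ zpowers c := by
  have := Fact.mk Nat.prime_two
  have hb := h.conj hs g
  have h0 : g * s * g⁻¹ * c * (g * s * g⁻¹)⁻¹ = c⁻¹ := by
    rw [show g * s * g⁻¹ * c * (g * s * g⁻¹)⁻¹ = g * (s * (g⁻¹ * c * g⁻¹⁻¹) * s⁻¹) * g⁻¹ by group]
    rcases h.conj_c hc (inv_mem hg) with e | e
    · rw [e, hi]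
      conv_lhs => rw [← e]
      group
    · rw [e, conj_inv.symm, hi, inv_inv]
      simpa [mul_assoc] using (congrArg (fun u => g * u⁻¹ * g⁻¹) e).symm
  generalize g * s * g⁻¹ = b at hb h0
  have h1 : Commute (s * b) c := by
    rw [Commute, SemiconjBy, ← mul_inv_eq_iff_eq_mul, show s * b * c * (s * b)⁻¹ = s * (b * c * b⁻¹) * s⁻¹ by group,
      h0, conj_inv.symm, hi, inv_inv]
  have h2 : s * (s * b) * s⁻¹ = (s * b)⁻¹ := by
    rw [← mul_assoc, hs.1, one_mul, mul_inv_rev, inv_eq_of_mul_eq_one_left hb.1]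
  have h3 := h.a3 s hs b hb
  have ht : ∀ u, u = 1 ∨ u = t → u ∈ zpowers c := fun u hu =>
    zpowers_le.2 (hc ▸ pow_mem (mem_zpowers c) 2) (h.mem_t.2 hu)
  obtain ⟨n, h4, h5, h6⟩ := h.a2 s hs b hb
  generalize s * b = w at *
  interval_cases n
  · exact pow_mem (pow_one w ▸ ht _ h6) 3
  · exact pow_mem (h.mem_c hs hc hi h1 h2 h6) 3
  · exact ht _ h6
  have h7 := h.mem_c hs hc hi (h1.pow_left 2) (by rw [← conj_pow, h2, inv_pow]) (by rwa [← pow_mul])
  have k : (w ^ 2) ^ 2 = t → False := fun e => by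
    rw [orderOf_eq_prime_pow (p := 2) (n := 2) (by rw [pow_two 2, pow_mul, e]; exact h.ne)
      (by rw [show 2 ^ (2 + 1) = 2 * 2 * 2 from rfl, pow_mul, pow_mul, e, pow_two, h.tt])] at h3
    omega
  refine pow_mem (h.mem_c hs hc hi h1 h2 ?_) 3
  rcases (QDFus.mem_zpowers_iff_of_four (h.ord_c hc)).1 h7 with e | e | e | e
  · exact .inl e
  · exact (k (e ▸ hc)).elim
  · exact .inr (by rw [e, ← pow_two, hc])
  · exact (k (by rw [e, inv_pow, hc, inv_eq_of_mul_eq_one_left h.tt])).elim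

theorem primes [Finite T] {y : T} (hy : Commute y c) (hp : (orderOf y).Prime) :
    orderOf y = 2 ∨ orderOf y = 3 ∨ orderOf y = 17 := by
  by_contra! hn
  set r := orderOf y
  have := Fact.mk hp
  set D := normalizer (zpowers c : Set T)
  set N := (zpowers c).subgroupOf D
  have hN : ∀ g : D, (g : D ⧸ N) = 1 ↔ (g : T) ∈ zpowers c := fun g => QuotientGroup.eq_one_iff g
  have h4 : ∀ u ∈ zpowers c, u ^ 4 = 1 := fun u hu => by
    rw [← h.ord_c hc, ← Nat.card_zpowers]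
    exact congrArg Subtype.val (pow_card_eq_one' (x := (⟨u, hu⟩ : zpowers c)))
  have k2 : ∀ n, ¬ r ∣ 2 ^ n := fun n e => hn.1 ((Nat.prime_dvd_prime_iff_eq hp Nat.prime_two).1 (hp.dvd_of_dvd_pow e))
  have hsD : s ∈ D := mem_normalizer_iff_map_conj_eq.2 (by
    rw [MonoidHom.map_zpowers]
    exact (congrArg zpowers hi).trans zpowers_inv)
  have hyD : y ∈ D := mem_normalizer_iff_map_conj_eq.2 (by
    rw [MonoidHom.map_zpowers]
    exact congrArg zpowers (mul_inv_eq_iff_eq_mul.2 hy))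
  obtain ⟨m, hm⟩ := index_eq_three_pow (d := ((⟨s, hsD⟩ : D) : D ⧸ N))
    (by rw [← QuotientGroup.mk_mul, hN, coe_mul, hs.1]; exact one_mem _) fun g => by
      obtain ⟨g, rfl⟩ := QuotientGroup.mk_surjective g
      exact (hN ((⟨s, hsD⟩ * (g * ⟨s, hsD⟩ * g⁻¹)) ^ 3)).2 (h.cube_c hs hc hi g.2)
  have h1 : r ∣ Nat.card (D ⧸ N) := by
    rw [← orderOf_eq_prime (x := ((⟨y, hyD⟩ : D) : D ⧸ N)) (p := r)
      (by rw [← QuotientGroup.mk_pow, hN, coe_pow, pow_orderOf_eq_one]; exact one_mem _)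
      fun e => k2 2 (orderOf_dvd_of_pow_eq_one (h4 _ ((hN _).1 e)))]
    exact orderOf_dvd_natCard _
  rw [← (centralizer {((⟨s, hsD⟩ : D) : D ⧸ N)}).card_mul_index, hm] at h1
  obtain ⟨⟨e, he⟩, h2⟩ := exists_prime_orderOf_dvd_card' r ((hp.dvd_mul.1 h1).resolve_right fun e =>
    hn.2.1 ((Nat.prime_dvd_prime_iff_eq hp Nat.prime_three).1 (hp.dvd_of_dvd_pow e)))
  rw [← orderOf_coe] at h2
  obtain ⟨e, rfl⟩ := QuotientGroup.mk_surjective e
  have h3 : (e : T) ^ r ∈ zpowers c := (hN (e ^ r)).1 (by rw [QuotientGroup.mk_pow, ← h2, pow_orderOf_eq_one])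
  have h5 : s⁻¹ * ((e : T) ^ 2 * s * ((e : T) ^ 2)⁻¹) ∈ zpowers c := (hN (⟨s, hsD⟩⁻¹ * (e ^ 2 * ⟨s, hsD⟩ * (e ^ 2)⁻¹))).1 (by
    simp only [QuotientGroup.mk_mul, QuotientGroup.mk_inv, QuotientGroup.mk_pow]
    rw [mem_centralizer_singleton_iff.1 (pow_mem he 2)]
    group)
  have h6 := h.sq_comm hc e.2
  have h7 : Commute (((e : T) ^ 2) ^ 4) s := by
    generalize (e : T) ^ 2 = f at h5 h6
    have h8 : Commute f (s⁻¹ * (f * s * f⁻¹)) := by
      obtain ⟨i, hi⟩ := h5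
      exact hi ▸ h6.zpow_right i
    have h9 : f * s * f⁻¹ = s * (s⁻¹ * (f * s * f⁻¹)) := by group
    have h10 := h4 _ h5
    generalize s⁻¹ * (f * s * f⁻¹) = z at h8 h9 h10
    have h11 : ∀ j : ℕ, f ^ j * s * (f ^ j)⁻¹ = s * z ^ j := fun j => by
      induction j with
      | zero => simp
      | succ j ih =>
        rw [show f ^ (j + 1) * s * (f ^ (j + 1))⁻¹ = f * (f ^ j * s * (f ^ j)⁻¹) * f⁻¹ by group, ih, ← conj_mul, h9,
          (h8.pow_right j).eq, pow_succ']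
        group
    have := h11 4
    rwa [h10, mul_one, mul_inv_eq_iff_eq_mul] at this
  have h8 : (((e : T) ^ 2) ^ 4) ^ 2 = 1 := by
    rcases h.a1 s hs _ h7 r hp hn.2.1 hn.2.2 (by
      rw [← pow_mul, ← pow_mul, mul_comm, pow_mul, mul_comm, pow_mul, h4 _ h3, one_pow]) with e | e | e | e <;>
    rw [e, pow_two]
    exacts [mul_one 1, h.tt, hs.1, (h.mul_t hs).1]
  rw [← pow_mul, ← pow_mul] at h8
  refine k2 4 (h2 ▸ orderOf_dvd_of_pow_eq_one ?_)
  rw [← QuotientGroup.mk_pow, hN]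
  exact (show ((e ^ 2 ^ 4 : D) : T) = 1 from h8) ▸ one_mem _

end Four

theorem main [Finite T] (h4 : (Sg t).ncard ≡ 4 [MOD 17]) (h3 : ¬ 3 ^ 14 ∣ Nat.card T) :
    ∃ c : T, c * c = t ∧ ∀ y, Commute y c → (orderOf y).Prime → orderOf y = 2 ∨ orderOf y = 3 ∨ orderOf y = 17 := by
  obtain ⟨a, ha, b, hb, e⟩ := h.exists_sq h4 h3
  refine ⟨a * b, pow_two (a * b) ▸ e, fun y => h.primes ha e ?_⟩
  rw [← mul_assoc, ha.1, one_mul, mul_inv_rev, inv_eq_of_mul_eq_one_left hb.1]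

end BY

end CfsgLib.KInv
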